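import Mathlib
import Cfsg.Prelude.Def_Transfer
import Cfsg.Agent.Lib.Thompson.ExtraspecialBasis

/-!
Double centralizers in an extraspecial `2`-subgroup: `C_Q(C_Q(S)) = S` for `Z(Q) ≤ S ≤ Q`.
-/

set_option autoImplicit false

namespace Cfsg.Agent.Lib.Thompson.ExtraDouble

open Subgroup
open scoped commutatorElement

variable {G : Type*} [Group G]

/-- `Q` has centre `{1, z}` and all its commutators and squares lie there. -/
structure Form (Q : Subgroup G) (z : G) : Prop where
  mem : z ∈ Q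
  ne : z ≠ 1
  sq : z * z = 1
  cz : ∀ q ∈ Q, Commute q z
  comm : ∀ a ∈ Q, ∀ b ∈ Q, ⁅a, b⁆ = 1 ∨ ⁅a, b⁆ = z
  square : ∀ a ∈ Q, a * a = 1 ∨ a * a = z
  center : ∀ a ∈ Q, (∀ b ∈ Q, Commute a b) → a = 1 ∨ a = z

theorem form_of_extraspecial [Finite G] {Q : Subgroup G} (h : Cfsg.IsExtraspecial 2 ↥Q) {z : G}
    (hzQ : z ∈ Q) (hz1 : z ≠ 1) (hzc : ∀ q ∈ Q, Commute q z) : Form Q z := by
  haveI : Fact (Nat.Prime 2) := ⟨Nat.prime_two⟩
  obtain ⟨w, d⟩ := Extra.exists_data h
  have hw : ∀ a : ↥Q, a ∈ zpowers w → a = 1 ∨ a = w := by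
    intro a ha
    obtain ⟨i, rfl⟩ := mem_zpowers_iff.1 ha
    have h2 : w ^ (2 : ℤ) = 1 := by
      have := pow_orderOf_eq_one w
      rw [d.ord] at this
      exact_mod_cast this
    rcases Int.even_or_odd i with ⟨j, rfl⟩ | ⟨j, rfl⟩
    · left
      rw [← two_mul, zpow_mul, h2, one_zpow]
    · right
      rw [zpow_add, zpow_mul, h2, one_zpow, one_mul, zpow_one]
  have hcenz : (⟨z, hzQ⟩ : ↥Q) ∈ Subgroup.center ↥Q :=
    Subgroup.mem_center_iff.2 fun q => Subtype.ext (hzc q q.2).eq
  have hzw : (w : G) = z := by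
    rw [d.cen] at hcenz
    rcases hw _ hcenz with e | e
    · exact absurd (congrArg Subtype.val e) hz1
    · exact (congrArg Subtype.val e).symm
  have hval : ∀ a : ↥Q, a ∈ zpowers w → (a : G) = 1 ∨ (a : G) = z := by
    intro a ha
    rcases hw a ha with e | e
    · exact Or.inl (by rw [e]; rfl)
    · exact Or.inr (by rw [e]; exact hzw)
  refine ⟨hzQ, hz1, ?_, hzc, fun a ha b hb => ?_, fun a ha => ?_, fun a ha hab => ?_⟩
  · have := pow_orderOf_eq_one w
    rw [d.ord, pow_two] at this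
    rw [← hzw]
    exact congrArg Subtype.val this
  · exact hval _ (d.comm ⟨a, ha⟩ ⟨b, hb⟩)
  · have := d.pow ⟨a, ha⟩
    rw [pow_two] at this
    exact hval _ this
  · have : (⟨a, ha⟩ : ↥Q) ∈ Subgroup.center ↥Q :=
      Subgroup.mem_center_iff.2 fun q => Subtype.ext (hab q q.2).symm.eq
    rw [d.cen] at this
    exact hval _ this

/-- The centralizer of `T` in `Q`. -/
abbrev orth (Q T : Subgroup G) : Subgroup G := Q ⊓ centralizer (T : Set G)

variable {Q : Subgroup G} {z : G}

theorem mem_orth {T : Subgroup G} {x : G} :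
    x ∈ orth Q T ↔ x ∈ Q ∧ ∀ t ∈ T, Commute x t := by
  refine ⟨fun h => ⟨h.1, fun t ht => (mem_centralizer_iff.1 h.2 t ht).symm⟩,
    fun h => ⟨h.1, mem_centralizer_iff.2 fun t ht => (h.2 t ht).symm.eq⟩⟩

theorem Form.comm_cases (F : Form Q z) {a b : G} (ha : a ∈ Q) (hb : b ∈ Q) :
    Commute a b ∨ ⁅a, b⁆ = z :=
  (F.comm a ha b hb).imp_left fun h => commutatorElement_eq_one_iff_mul_comm.1 h

/-- Adjoining one element to `T` does not decrease `|C_Q(T)| |T|`. -/
theorem Form.step [Finite G] (F : Form Q z) {T : Subgroup G} (hT : T ≤ Q) {x : G} (hx : x ∈ Q) :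
    Nat.card (orth Q T) * Nat.card T ≤
      Nat.card (orth Q (T ⊔ zpowers x)) * Nat.card (T ⊔ zpowers x : Subgroup G) := by
  set U : Subgroup G := T ⊔ zpowers x
  by_cases hxT : x ∈ T
  · have : U = T := sup_eq_left.2 (zpowers_le.2 hxT)
    rw [this]
  have hlt : T < U := lt_of_le_of_ne le_sup_left
    fun e => hxT (e ▸ (le_sup_right : zpowers x ≤ U) (mem_zpowers x))
  have hU : 2 * Nat.card T ≤ Nat.card U := by
    obtain ⟨k, hk⟩ := Subgroup.card_dvd_of_le hlt.le
    have hk2 : 2 ≤ k := by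
      by_contra hcon
      interval_cases k
      · exact absurd (by simpa using hk) (Nat.card_pos (α := U)).ne'
      · exact hlt.ne (eq_of_le_of_card_ge hlt.le (by omega))
    rw [hk]
    calc 2 * Nat.card T = Nat.card T * 2 := mul_comm _ _
      _ ≤ _ := Nat.mul_le_mul_left _ hk2
  have hoU : orth Q U = orth Q T ⊓ centralizer {x} := by
    refine le_antisymm (fun y hy => ?_) (fun y hy => ?_)
    · exact ⟨⟨hy.1, centralizer_le (show (T : Set G) ⊆ U from hlt.le) hy.2⟩,
        mem_centralizer_singleton_iff.2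
          (mem_centralizer_iff.1 hy.2 x ((le_sup_right : zpowers x ≤ U) (mem_zpowers x))).symm⟩
    · refine ⟨hy.1.1, mem_centralizer_iff.2 fun t ht => ?_⟩
      have : U ≤ centralizer {y} := sup_le
        (fun s hs => mem_centralizer_singleton_iff.2 (mem_centralizer_iff.1 hy.1.2 s hs))
        (zpowers_le.2 (mem_centralizer_singleton_iff.2 (mem_centralizer_singleton_iff.1 hy.2).symm))
      exact mem_centralizer_singleton_iff.1 (this ht)
  have hO : Nat.card (orth Q T) ≤ 2 * Nat.card (orth Q U) := by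
    by_cases hall : orth Q T ≤ orth Q U
    · exact (card_le_of_le hall).trans (Nat.le_mul_of_pos_left _ two_pos)
    obtain ⟨y, hy, hy'⟩ := SetLike.not_le_iff_exists.1 hall
    have hcov : (orth Q T : Set G) ⊆ (orth Q U : Set G) ∪ (y * ·) '' (orth Q U : Set G) := by
      intro w hw
      by_cases hw' : w ∈ orth Q U
      · exact Or.inl hw'
      refine Or.inr ⟨y⁻¹ * w, ?_, by simp⟩
      rw [SetLike.mem_coe, hoU] at *
      refine mem_inf.2 ⟨mul_mem (inv_mem hy) hw, mem_centralizer_singleton_iff.2 ?_⟩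
      have h1 : ∀ a ∈ orth Q T, a ∉ orth Q T ⊓ centralizer {x} → a * x * a⁻¹ = z * x := by
        intro a ha ha'
        rcases F.comm_cases ha.1 hx with e | e
        · exact absurd ⟨ha, mem_centralizer_singleton_iff.2 e.eq⟩ ha'
        · rw [← e, commutatorElement_def]; group
      have hy1 := h1 y hy hy'
      have hw1 := h1 w hw hw'
      have : y⁻¹ * (w * x * w⁻¹) * y = x := by
        rw [hw1, ← hy1]; group
      calc y⁻¹ * w * x = (y⁻¹ * (w * x * w⁻¹) * y) * (y⁻¹ * w) := by group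
        _ = x * (y⁻¹ * w) := by rw [this]
    have h := (Set.ncard_le_ncard hcov (Set.toFinite _)).trans (Set.ncard_union_le _ _)
    rw [Set.ncard_image_of_injective _ (mul_right_injective y)] at h
    rw [← Nat.card_coe_set_eq, ← Nat.card_coe_set_eq] at h
    change Nat.card (orth Q T) ≤ Nat.card (orth Q U) + Nat.card (orth Q U) at h
    omega
  calc Nat.card (orth Q T) * Nat.card T ≤ 2 * Nat.card (orth Q U) * Nat.card T :=
        Nat.mul_le_mul_right _ hO
    _ = Nat.card (orth Q U) * (2 * Nat.card T) := by ring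
    _ ≤ _ := Nat.mul_le_mul_left _ hU

theorem Form.mono [Finite G] (F : Form Q z) {T U : Subgroup G} (hTU : T ≤ U) (hU : U ≤ Q) :
    Nat.card (orth Q T) * Nat.card T ≤ Nat.card (orth Q U) * Nat.card U := by
  classical
  suffices key : ∀ s : Finset G, (s : Set G) ⊆ Q →
      Nat.card (orth Q T) * Nat.card T ≤
        Nat.card (orth Q (T ⊔ closure (s : Set G))) * Nat.card (T ⊔ closure (s : Set G) : Subgroup G) by
    have h := key (Set.toFinite (U : Set G)).toFinset (by simpa using hU)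
    rwa [Set.Finite.coe_toFinset, closure_eq, sup_eq_right.2 hTU] at h
  intro s
  induction s using Finset.induction_on with
  | empty => intro _; rw [Finset.coe_empty, Subgroup.closure_empty, sup_bot_eq]
  | insert a s _ ih =>
    intro hs
    rw [Finset.coe_insert, Set.insert_subset_iff] at hs
    refine (ih hs.2).trans ?_
    have h := F.step (T := T ⊔ closure (s : Set G))
      (sup_le (hTU.trans hU) ((closure_le Q).2 hs.2)) hs.1
    have e : T ⊔ closure (s : Set G) ⊔ zpowers a = T ⊔ closure ((insert a s : Finset G) : Set G) := by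
      rw [Finset.coe_insert, Set.insert_eq, Subgroup.closure_union, ← zpowers_eq_closure,
        sup_assoc, sup_comm (closure (s : Set G))]
    rwa [e] at h

theorem Form.zpowers_mem (F : Form Q z) {a : G} (ha : a ∈ zpowers z) : a = 1 ∨ a = z := by
  obtain ⟨i, rfl⟩ := mem_zpowers_iff.1 ha
  have h2 : z ^ (2 : ℤ) = 1 := by rw [zpow_two]; exact F.sq
  rcases Int.even_or_odd i with ⟨j, rfl⟩ | ⟨j, rfl⟩
  · left
    rw [← two_mul, zpow_mul, h2, one_zpow]
  · right
    rw [zpow_add, zpow_mul, h2, one_zpow, one_mul, zpow_one]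

theorem Form.card_orth_mul [Finite G] (F : Form Q z) {T : Subgroup G} (hz : z ∈ T) (hT : T ≤ Q) :
    Nat.card (orth Q T) * Nat.card T = 2 * Nat.card Q := by
  have hzc : Nat.card (zpowers z) = 2 := by
    rw [Nat.card_zpowers]
    exact orderOf_eq_prime (by rw [pow_two]; exact F.sq) F.ne
  have hbot : orth Q (zpowers z) = Q := inf_eq_left.2 fun q hq => mem_centralizer_iff.2 fun t ht => by
    rcases F.zpowers_mem ht with rfl | rfl
    · simp
    · exact (F.cz q hq).symm.eq
  have htop : orth Q Q = zpowers z := by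
    refine le_antisymm (fun y hy => ?_) (zpowers_le.2 (mem_orth.2 ⟨F.mem, fun t ht => (F.cz t ht).symm⟩))
    obtain ⟨h1, h2⟩ := mem_orth.1 hy
    rcases F.center y h1 h2 with rfl | rfl
    exacts [one_mem _, mem_zpowers _]
  have h1 := F.mono (zpowers_le.2 hz) hT
  have h2 := F.mono hT le_rfl
  rw [hbot, hzc] at h1
  rw [htop, hzc] at h2
  omega

/-- The double centralizer property. -/
theorem Form.orth_orth [Finite G] (F : Form Q z) {T : Subgroup G} (hz : z ∈ T) (hT : T ≤ Q) :
    orth Q (orth Q T) = T := by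
  have hle : T ≤ orth Q (orth Q T) := fun t ht =>
    mem_orth.2 ⟨hT ht, fun y hy => ((mem_orth.1 hy).2 t ht).symm⟩
  have hzO : z ∈ orth Q T := mem_orth.2 ⟨F.mem, fun t ht => (F.cz t (hT ht)).symm⟩
  have h1 := F.card_orth_mul hz hT
  have h2 := F.card_orth_mul hzO inf_le_left
  refine (eq_of_le_of_card_ge hle ?_).symm
  have hpos : 0 < Nat.card (orth Q T) := Nat.card_pos
  refine Nat.le_of_mul_le_mul_right ?_ hpos
  rw [h2, ← h1, mul_comm]

end Cfsg.Agent.Lib.Thompson.ExtraDouble
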