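import Cfsg.Agent.Lib.Thompson.RankTwo
import Cfsg.Agent.Lib.Thompson.Elementary

/-!
For odd `p`, elementary abelian subgroups of order `p^4` and normal ones (Alperin, Konvisser);
an element of order 3 fixes at least 9 points of an elementary abelian group of order 81.
-/

set_option autoImplicit false

namespace Cfsg.Agent.Lib.Thompson

open Subgroup
open scoped commutatorElement

variable {R : Type*} [Group R] [Finite R] {p : ℕ} [hp : Fact p.Prime]

omit hp in
theorem relIndex_pos_of_finite (H K : Subgroup R) : 0 < H.relIndex K :=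
  Nat.pos_of_ne_zero (index_ne_zero_of_finite (H := H.subgroupOf K))

omit hp in
/-- Conjugation orbits in a coset bound the index of a centralizer. -/
theorem relIndex_centralizer_le_card (E B : Subgroup R) (w : R) (h : ∀ e ∈ E, ⁅e, w⁆ ∈ B) :
    (centralizer ({w} : Set R)).relIndex E ≤ Nat.card B ∧
    (Nat.card B ≤ (centralizer ({w} : Set R)).relIndex E → ∀ b ∈ B, ∃ e ∈ E, ⁅e, w⁆ = b) := by
  let f : E ⧸ (centralizer ({w} : Set R)).subgroupOf E → B := fun q => ⟨⁅(q.out : R), w⁆, h _ q.out.2⟩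
  have hinj : Function.Injective f := by
    intro q q' hqq
    have h1 : ⁅(q.out : R), w⁆ = ⁅(q'.out : R), w⁆ := congrArg Subtype.val hqq
    rw [← Quotient.out_eq q, ← Quotient.out_eq q']
    refine QuotientGroup.eq.mpr ?_
    rw [mem_subgroupOf, mem_centralizer_singleton_iff, coe_mul, coe_inv]
    simp only [commutatorElement_def, mul_left_inj] at h1
    calc (q.out : R)⁻¹ * q'.out * w = (q.out : R)⁻¹ * (q'.out * w * (q'.out : R)⁻¹) * q'.out := by group
      _ = (q.out : R)⁻¹ * (q.out * w * (q.out : R)⁻¹) * q'.out := by rw [h1]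
      _ = w * ((q.out : R)⁻¹ * q'.out) := by group
  refine ⟨Nat.card_le_card_of_injective f hinj, fun hle b hb => ?_⟩
  have hs : Function.Bijective f := by
    rw [Nat.bijective_iff_injective_and_card]
    exact ⟨hinj, le_antisymm (Nat.card_le_card_of_injective f hinj) hle⟩
  obtain ⟨q, hq⟩ := hs.2 ⟨b, hb⟩
  exact ⟨q.out, q.out.2, congrArg Subtype.val hq⟩

omit [Finite R] hp in
theorem centralizer_sup_zpowers {W B : Subgroup R} {w : R} (h : W ≤ B ⊔ zpowers w) :
    centralizer (B : Set R) ⊓ centralizer ({w} : Set R) ≤ centralizer (W : Set R) := by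
  intro x hx
  have h1 : W ≤ centralizer ({x} : Set R) :=
    h.trans (sup_le (fun b hb => mem_centralizer_singleton_iff.mpr (mem_centralizer_iff.mp hx.1 b hb))
      (zpowers_le.mpr (mem_centralizer_singleton_iff.mpr (mem_centralizer_singleton_iff.mp hx.2).symm)))
  exact mem_centralizer_iff.mpr fun y hy => mem_centralizer_singleton_iff.mp (h1 hy)

theorem le_sup_zpowers_of_card {W B : Subgroup R} (hR : IsPGroup p R) {w : R} (hBW : B ≤ W) (hw : w ∈ W)
    (hwB : w ∉ B) (hc : Nat.card W ≤ p * Nat.card B) : W ≤ B ⊔ zpowers w := by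
  have hlt : B < B ⊔ zpowers w := lt_of_le_of_ne le_sup_left fun e => hwB (e ▸ mem_sup_right (mem_zpowers w))
  exact (eq_of_le_of_card_ge (sup_le hBW (zpowers_le.mpr hw)) (hc.trans (card_mul_p_le hR hlt))).ge

theorem commutator_top_lt (hR : IsPGroup p R) {N : Subgroup R} [N.Normal] (hN : N ≠ ⊥) :
    ⁅N, (⊤ : Subgroup R)⁆ < N := by
  haveI : Group.IsNilpotent R := hR.isNilpotent
  exact lt_of_le_of_ne (commutator_le_left N ⊤) fun e => hN (Transfer.eq_bot_of_le_commutator_top e.ge)

theorem card_commutator_top_le (hR : IsPGroup p R) (N : Subgroup R) [N.Normal] {k : ℕ}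
    (hc : Nat.card N ≤ p ^ (k + 1)) : Nat.card (⁅N, (⊤ : Subgroup R)⁆ : Subgroup R) ≤ p ^ k := by
  by_cases hN : N = ⊥
  · subst hN
    rw [commutator_bot_left, card_bot]
    exact Nat.one_le_pow _ _ hp.out.pos
  · have h := (card_mul_p_le hR (commutator_top_lt hR hN)).trans hc
    rw [pow_succ'] at h
    exact Nat.le_of_mul_le_mul_left h hp.out.pos

/-- A normal subgroup of order `p²` is centralized by a subgroup of index at most `p`. -/
theorem relIndex_centralizer_pair (hR : IsPGroup p R) (E B : Subgroup R) [B.Normal]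
    (hB : Nat.card B = p ^ 2) : (centralizer (B : Set R)).relIndex E ≤ p := by
  set C := ⁅B, (⊤ : Subgroup R)⁆ with hC
  have hC1 : Nat.card C ≤ p := by simpa using card_commutator_top_le hR B (k := 1) hB.le
  by_cases hC0 : C = ⊥
  · have : E ≤ centralizer (B : Set R) := fun e _ => by
      rw [mem_centralizer_iff]
      intro b hb
      have := commutator_mem_commutator (H₁ := B) (H₂ := ⊤) hb (mem_top e)
      rw [← hC, hC0, mem_bot, commutatorElement_eq_one_iff_mul_comm] at this
      exact this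
    rw [relIndex_eq_one.mpr this]
    exact hp.out.one_lt.le
  haveI : C.Normal := inferInstance
  have hCp : Nat.card C = p := le_antisymm hC1
    (Nat.le_of_dvd Nat.card_pos ((hR.to_subgroup C).card_eq_or_dvd.resolve_left fun e => hC0 (card_eq_one.mp e)))
  have hCz : ⁅C, (⊤ : Subgroup R)⁆ = ⊥ := by
    have h := card_commutator_top_le hR C (k := 0) (by simpa using hCp.le)
    rw [pow_zero] at h
    exact card_eq_one.mp (le_antisymm h Nat.card_pos)
  have hB1 : B ≠ ⊥ := fun e => by
    rw [e, card_bot] at hB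
    have := Nat.one_lt_pow two_ne_zero hp.out.one_lt; omega
  obtain ⟨b, hb, hbC⟩ := SetLike.exists_of_lt (commutator_top_lt hR hB1)
  have hBgen : B ≤ C ⊔ zpowers b :=
    le_sup_zpowers_of_card hR (commutator_le_left B ⊤) hb hbC (by rw [hB, hCp, pow_two])
  have hEb : ∀ e ∈ E, ⁅e, b⁆ ∈ C := fun e _ => by
    rw [hC, commutator_comm]; exact commutator_mem_commutator (mem_top e) hb
  refine le_trans ?_ ((relIndex_centralizer_le_card E C b hEb).1.trans hC1)
  refine Nat.le_of_dvd (relIndex_pos_of_finite _ _) (relIndex_dvd_of_le_left E ?_)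
  refine le_trans (le_inf ?_ le_rfl) (centralizer_sup_zpowers hBgen)
  intro x _
  rw [mem_centralizer_iff]
  intro c hc
  have := commutator_mem_commutator (H₁ := C) (H₂ := ⊤) hc (mem_top x)
  rw [hCz, mem_bot, commutatorElement_eq_one_iff_mul_comm] at this
  exact this

/-- Two elementary abelian subgroups normalizing each other generate a group of exponent `p`. -/
theorem pow_eq_one_sup (hp2 : p ≠ 2) {E E' : Subgroup R} (hE : Cfsg.IsElementaryAbelian p E)
    (hE' : Cfsg.IsElementaryAbelian p E') (hn : E ≤ normalizer (E' : Set R))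
    (hn' : E' ≤ normalizer (E : Set R)) {x : R} (hx : x ∈ E ⊔ E') : x ^ p = 1 := by
  rw [← SetLike.mem_coe, coe_mul_of_left_le_normalizer_right E E' hn] at hx
  obtain ⟨a, ha, b, hb, rfl⟩ := Set.mem_mul.mp hx
  have hz : ⁅b⁻¹, a⁻¹⁆ ∈ E ⊓ E' := by
    constructor
    · have : b⁻¹ * a⁻¹ * b ∈ E := by
        have := (mem_normalizer_iff.mp (hn' (inv_mem hb)) a⁻¹).mp (inv_mem ha)
        simpa using this
      rw [commutatorElement_def, inv_inv, inv_inv]
      exact mul_mem this ha
    · have : a⁻¹ * b * a ∈ E' := by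
        have := (mem_normalizer_iff.mp (hn (inv_mem ha)) b).mp hb
        simpa using this
      rw [commutatorElement_def, inv_inv, inv_inv]
      simpa [mul_assoc] using mul_mem (inv_mem hb) this
  have hza : Commute ⁅b⁻¹, a⁻¹⁆ a := commute_of_elementary hE hz.1 ha
  have hzb : Commute ⁅b⁻¹, a⁻¹⁆ b := commute_of_elementary hE' hz.2 hb
  rw [mul_pow_class_two (mul_comm_eq a b) hza hzb, hE.2 a ha, hE'.2 b hb,
    pow_choose_two_eq_one hp2 (hE.2 _ hz.1)]
  simp

/-- S0122. -/
theorem exists_normal_elem_four (hp2 : p ≠ 2) (hR : IsPGroup p R) {E : Subgroup R}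
    (hE : Cfsg.IsElementaryAbelian p E) (hE4 : Nat.card E = p ^ 4) :
    ∃ A : Subgroup R, A.Normal ∧ Cfsg.IsElementaryAbelian p A ∧ Nat.card A = p ^ 4 := by
  by_contra hno
  have hp1 := hp.out.one_lt
  have hsmall : ∀ N : Subgroup R, N.Normal → Cfsg.IsElementaryAbelian p N → Nat.card N ≤ p ^ 3 := by
    intro N hN hNe
    by_contra hlt
    push Not at hlt
    haveI := hN
    obtain ⟨k, hk⟩ := IsPGroup.iff_card.mp (hR.to_subgroup N)
    have h4 : 3 < k := (Nat.pow_lt_pow_iff_right hp1).mp (hk ▸ hlt)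
    obtain ⟨M, hMN, hM, hMc⟩ := exists_normal_le_card hR (N := N) 4
      (hk ▸ Nat.pow_le_pow_right hp.out.pos h4)
    exact hno ⟨M, hM, isElementaryAbelian_le hNe hMN, hMc⟩
  obtain ⟨W, hWn, hWc, hWp, hW3⟩ : ∃ W : Subgroup R, W.Normal ∧ IsMulCommutative W ∧
      (∀ a ∈ W, a ^ p = 1) ∧ Nat.card W = p ^ 3 := by
    by_contra hW
    have := pRankLE_two_of_no_normal hp2 hR (fun A h1 h2 h3 h4 => hW ⟨A, h1, h2, h3, h4⟩) E hE.1 hE.2
    rw [hE4] at this
    exact absurd ((Nat.pow_le_pow_iff_right hp1).mp this) (by norm_num)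
  haveI := hWn
  have hWe : Cfsg.IsElementaryAbelian p W := ⟨hWc, hWp⟩
  set C := centralizer (W : Set R) with hCdef
  have hCW : ∀ y ∈ C, y ^ p = 1 → y ∈ W := by
    intro y hy hyp
    by_contra hyW
    obtain ⟨W', hW', hWe', hlt⟩ := Uniq.exists_larger_normal_elementary hp2 hR W hWe hy hyp hyW
    have h1 := Transfer.card_lt_of_subgroup_lt hlt
    have h2 := hsmall W' hW' hWe'
    omega
  set D := ⁅W, (⊤ : Subgroup R)⁆ with hD
  have hDW : D ≤ W := commutator_le_left W ⊤
  have hW1 : W ≠ ⊥ := fun e => by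
    rw [e, card_bot] at hW3
    have := Nat.one_lt_pow three_ne_zero hp1; omega
  have hD2 : Nat.card D ≤ p ^ 2 := card_commutator_top_le hR W hW3.le
  have hcm : ∀ e : R, ∀ w ∈ W, ⁅e, w⁆ ∈ D := fun e w hw => by
    rw [hD, commutator_comm]; exact commutator_mem_commutator (mem_top e) hw
  -- a normal subgroup of index `p` in `W` containing `D`
  obtain ⟨B, hDB, hBW, hBn, hBc⟩ : ∃ B : Subgroup R, D ≤ B ∧ B ≤ W ∧ B.Normal ∧ Nat.card B = p ^ 2 := by
    obtain ⟨M, hM, hDM⟩ := (eq_top_or_exists_le_coatom (D.subgroupOf W)).resolve_left fun e =>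
      (commutator_top_lt hR hW1).not_ge (subgroupOf_eq_top.mp e)
    obtain ⟨-, hMi⟩ := PGroupFrattini.coatom_index (hR.to_subgroup W) hM
    have hDB : D ≤ M.map W.subtype := fun d hd => ⟨⟨d, hDW hd⟩, hDM hd, rfl⟩
    refine ⟨M.map W.subtype, hDB, map_subtype_le M, ⟨fun b hb g => ?_⟩, ?_⟩
    · have h1 := mul_mem (hDB (hcm g b (map_subtype_le M hb))) hb
      simpa [commutatorElement_def] using h1
    · rw [card_subtype]
      have h := card_mul_index M
      rw [hMi, hW3] at h
      exact Nat.eq_of_mul_eq_mul_right hp.out.pos (h.trans (pow_succ p 2))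
  haveI := hBn
  obtain ⟨w₀, hw₀W, hw₀B⟩ : ∃ w ∈ W, w ∉ B := SetLike.exists_of_lt
    (lt_of_le_of_ne hBW fun e => by
      rw [e, hW3] at hBc
      exact absurd ((Nat.pow_right_injective hp.out.two_le) hBc) (by norm_num))
  have hWgen₀ : W ≤ B ⊔ zpowers w₀ :=
    le_sup_zpowers_of_card hR hBW hw₀W hw₀B (by rw [hW3, hBc, ← pow_succ'])
  -- every such subgroup meets `W` in `D`
  have key : ∀ F : Subgroup R, Cfsg.IsElementaryAbelian p F → Nat.card F = p ^ 4 →
      F ⊓ W = D ∧ Nat.card D = p ^ 2 := by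
    intro F hF hF4
    have hFC : F ⊓ C = F ⊓ W := le_antisymm (le_inf inf_le_left fun y hy => hCW y hy.2 (hF.2 y hy.1))
      (inf_le_inf_left F (fun a ha => mem_centralizer_iff.mpr fun b hb => commute_of_elementary hWe hb ha))
    have hri : C.relIndex F ≤ p ^ 2 := by
      by_cases hsm : (centralizer ({w₀} : Set R)).relIndex F ≤ p
      · refine le_trans (Nat.le_of_dvd (relIndex_pos_of_finite _ _)
          (relIndex_dvd_of_le_left F (centralizer_sup_zpowers hWgen₀))) (relIndex_inf_le.trans ?_)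
        rw [pow_two]
        exact Nat.mul_le_mul (relIndex_centralizer_pair hR F B hBc) hsm
      · push Not at hsm
        obtain ⟨k, -, hk⟩ := (Nat.dvd_prime_pow hp.out).mp
          (hF4 ▸ (relIndex_dvd_card (centralizer ({w₀} : Set R)) F))
        have hbig : Nat.card B ≤ (centralizer ({w₀} : Set R)).relIndex F := by
          rw [hk] at hsm ⊢
          have : 1 < k := (Nat.pow_lt_pow_iff_right hp1).mp (by rwa [pow_one])
          exact hBc ▸ Nat.pow_le_pow_right hp.out.pos this
        obtain ⟨hle, hsur⟩ := relIndex_centralizer_le_card F B w₀ (fun e _ => hDB (hcm e w₀ hw₀W))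
        refine le_trans ?_ (hle.trans hBc.le)
        rw [← inf_relIndex_right (centralizer ({w₀} : Set R)) F]
        refine Nat.le_of_dvd (relIndex_pos_of_finite _ _) (relIndex_dvd_of_le_left F ?_)
        intro x hx
        refine centralizer_sup_zpowers hWgen₀ ⟨mem_centralizer_iff.mpr fun b hb => ?_, hx.1⟩
        obtain ⟨e, he, rfl⟩ := hsur hbig b hb
        have hxw : Commute x w₀ := mem_centralizer_singleton_iff.mp hx.1
        have hxe : Commute x e := commute_of_elementary hF hx.2 he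
        exact (((hxe.mul_right hxw).mul_right hxe.inv_right).mul_right hxw.inv_right).symm
    have hcard : Nat.card (F ⊓ C : Subgroup R) * C.relIndex F = p ^ 4 := by
      rw [inf_comm, ← hF4, ← relIndex_bot_left, ← relIndex_bot_left, ← inf_relIndex_right C F,
        relIndex_mul_relIndex _ _ _ bot_le inf_le_right]
    obtain ⟨k, hk⟩ := IsPGroup.iff_card.mp (hR.to_subgroup (F ⊓ C : Subgroup R))
    have hk2 : 2 ≤ k := by
      by_contra hlt
      push Not at hlt
      have h1 : p ^ 4 ≤ p ^ 1 * p ^ 2 := hcard ▸ hk ▸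
        Nat.mul_le_mul (Nat.pow_le_pow_right hp.out.pos (by omega)) hri
      rw [← pow_add] at h1
      exact absurd ((Nat.pow_le_pow_iff_right hp1).mp h1) (by norm_num)
    have hlt : F ⊓ W < W := by
      refine lt_of_le_of_ne inf_le_right fun e => ?_
      have hWF : W ≤ F := e.ge.trans inf_le_left
      have hFC' : F ≤ C := fun y hy => mem_centralizer_iff.mpr fun b hb => commute_of_elementary hF (hWF hb) hy
      have h1 := card_le_of_le (fun y hy => hCW y (hFC' hy) (hF.2 y hy) : F ≤ W)
      rw [hF4, hW3] at h1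
      exact absurd ((Nat.pow_le_pow_iff_right hp1).mp h1) (by norm_num)
    have hc2 : Nat.card (F ⊓ W : Subgroup R) = p ^ 2 := by
      rw [← hFC, hk]
      have h1 := Transfer.card_lt_of_subgroup_lt hlt
      rw [← hFC, hk, hW3] at h1
      have : k < 3 := (Nat.pow_lt_pow_iff_right hp1).mp h1
      rw [show k = 2 by omega]
    have hri2 : C.relIndex F = p ^ 2 := by
      rw [hFC, hc2] at hcard
      exact Nat.eq_of_mul_eq_mul_left (pow_pos hp.out.pos 2) (hcard.trans (pow_add p 2 2))
    have horb : ∀ w ∈ W, w ∉ F ⊓ W → p ^ 2 ≤ (centralizer ({w} : Set R)).relIndex F := by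
      intro w hw hwF
      have hgen := le_sup_zpowers_of_card hR inf_le_right hw hwF (by rw [hc2, hW3, ← pow_succ'])
      rw [← hri2]
      refine Nat.le_of_dvd (relIndex_pos_of_finite _ _) ?_
      rw [← inf_relIndex_right (centralizer ({w} : Set R)) F]
      refine relIndex_dvd_of_le_left F ?_
      intro x hx
      exact centralizer_sup_zpowers hgen
        ⟨mem_centralizer_iff.mpr fun b hb => commute_of_elementary hF hb.1 hx.2, hx.1⟩
    have hDF : D ≤ F ⊓ W := by
      intro d hd
      by_contra hdF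
      have hsub : ∀ e ∈ F, ⁅e, d⁆ ∈ ⁅D, (⊤ : Subgroup R)⁆ := fun e _ => by
        rw [commutator_comm]; exact commutator_mem_commutator (mem_top e) hd
      haveI : D.Normal := inferInstance
      have h1 := (horb d (hDW hd) hdF).trans ((relIndex_centralizer_le_card F _ d hsub).1.trans
        (card_commutator_top_le hR D (k := 1) hD2))
      exact absurd ((Nat.pow_le_pow_iff_right hp1).mp h1) (by norm_num)
    obtain ⟨w, hw, hwF⟩ := SetLike.exists_of_lt hlt
    have hD2' : p ^ 2 ≤ Nat.card D :=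
      (horb w hw hwF).trans (relIndex_centralizer_le_card F D w (fun e _ => hcm e w hw)).1
    exact ⟨(eq_of_le_of_card_ge hDF (hc2 ▸ hD2')).symm, le_antisymm hD2 hD2'⟩
  -- a conjugate normalizing and normalized by `E`
  have hnn : ¬ E.Normal := fun h => hno ⟨E, h, hE, hE4⟩
  set N := normalizer (E : Set R) with hN
  have hNlt : N < ⊤ := lt_top_iff_ne_top.mpr fun e => hnn (normalizer_eq_top_iff.mp e)
  haveI : Group.IsNilpotent R := hR.isNilpotent
  obtain ⟨g, hg, hgN⟩ := SetLike.exists_of_lt (Group.normalizerCondition_of_isNilpotent N hNlt)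
  set E' := E.map (MulAut.conj g).toMonoidHom with hE'def
  have hE' : Cfsg.IsElementaryAbelian p E' := isElementaryAbelian_map _ hE
  have hE'4 : Nat.card E' = p ^ 4 := by
    rw [hE'def, card_map_of_injective (MulAut.conj g).injective, hE4]
  have hE'N : E' ≤ N := by
    rintro _ ⟨e, he, rfl⟩
    exact (mem_normalizer_iff.mp hg e).mp (le_normalizer he)
  have hnE' : E ≤ normalizer (E' : Set R) := by
    intro e he
    have h1 : g⁻¹ * e * g ∈ N := by
      have := (mem_normalizer_iff.mp (inv_mem hg) e).mp (le_normalizer he)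
      simpa using this
    rw [mem_normalizer_iff]
    intro x
    simp only [hE'def, mem_map_equiv, MulAut.conj_symm_apply]
    have := mem_normalizer_iff.mp h1 (g⁻¹ * x * g)
    convert this using 1
    group
  have hne : E' ≠ E := fun e => hgN (by
    rw [hN, mem_normalizer_iff]
    intro x
    constructor
    · intro hx
      exact e.le ⟨x, hx, rfl⟩
    · intro hx
      obtain ⟨y, hy, hy'⟩ := e.ge hx
      rwa [← (MulAut.conj g).injective (hy' : MulAut.conj g y = MulAut.conj g x)])
  obtain ⟨hEW, hDc⟩ := key E hE hE4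
  obtain ⟨hE'W, -⟩ := key E' hE' hE'4
  set K := E ⊔ E' with hK
  obtain ⟨w, hw, hwD⟩ := SetLike.exists_of_lt (commutator_top_lt hR hW1)
  have hgen := le_sup_zpowers_of_card hR hDW hw hwD (by rw [hW3, hDc, ← pow_succ'])
  have hKD : K ≤ centralizer (D : Set R) := by
    refine sup_le (fun e he => mem_centralizer_iff.mpr fun d hd => ?_)
      (fun e he => mem_centralizer_iff.mpr fun d hd => ?_)
    · exact commute_of_elementary hE (hEW.ge hd).1 he
    · exact commute_of_elementary hE' (hE'W.ge hd).1 he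
  have hKC : C.relIndex K ≤ p ^ 2 := by
    refine le_trans ?_ ((relIndex_centralizer_le_card K D w (fun e _ => hcm e w hw)).1.trans hD2)
    rw [← inf_relIndex_right (centralizer ({w} : Set R)) K]
    refine Nat.le_of_dvd (relIndex_pos_of_finite _ _) (relIndex_dvd_of_le_left K ?_)
    exact fun x hx => centralizer_sup_zpowers hgen ⟨hKD hx.2, hx.1⟩
  have hKW : C ⊓ K ≤ W := fun x hx => hCW x hx.1 (pow_eq_one_sup hp2 hE hE' hnE' hE'N hx.2)
  have hKcard : Nat.card (C ⊓ K : Subgroup R) * C.relIndex K = Nat.card K := by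
    rw [← relIndex_bot_left, ← relIndex_bot_left, ← inf_relIndex_right C K,
      relIndex_mul_relIndex _ _ _ bot_le inf_le_right]
  have hK5 : Nat.card K ≤ p ^ 5 := by
    rw [← hKcard, show p ^ 5 = p ^ 3 * p ^ 2 by rw [← pow_add]]
    exact Nat.mul_le_mul ((card_le_of_le hKW).trans hW3.le) hKC
  have hEK : E < K := lt_of_le_of_ne le_sup_left fun e => hne
    (eq_of_le_of_card_ge (le_sup_right.trans e.ge) (by rw [hE4, hE'4]))
  have hK5' : p ^ 5 ≤ Nat.card K := by
    rw [show p ^ 5 = p * p ^ 4 by rw [pow_succ']]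
    exact hE4 ▸ card_mul_p_le hR hEK
  have hWK : W ≤ K := by
    refine le_trans (eq_of_le_of_card_ge hKW ?_).ge inf_le_right
    rw [hW3]
    refine Nat.le_of_mul_le_mul_right ?_ (pow_pos hp.out.pos 2)
    rw [← pow_add]
    exact hK5'.trans (hKcard ▸ Nat.mul_le_mul_left _ hKC)
  have hI : E ⊓ E' ≤ D := by
    intro y hy
    have hyK : K ≤ centralizer ({y} : Set R) := sup_le
      (fun e he => mem_centralizer_singleton_iff.mpr (commute_of_elementary hE he hy.1))
      (fun e he => mem_centralizer_singleton_iff.mpr (commute_of_elementary hE' he hy.2))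
    refine hEW.le ⟨hy.1, hCW y (mem_centralizer_iff.mpr fun b hb => ?_) (hE.2 y hy.1)⟩
    exact mem_centralizer_singleton_iff.mp (hyK (hWK hb))
  have h1 : Nat.card (E ⊓ E' : Subgroup R) * E.relIndex E' = p ^ 4 := by
    rw [← hE'4, ← relIndex_bot_left, ← relIndex_bot_left, ← inf_relIndex_right E E',
      relIndex_mul_relIndex _ _ _ bot_le inf_le_right]
  have h2 : E.relIndex E' ≤ E.relIndex K :=
    relIndex_le_of_le_right le_sup_right (relIndex_pos_of_finite _ _).ne'
  have h3 : Nat.card E * E.relIndex K = Nat.card K := by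
    rw [← relIndex_bot_left, ← relIndex_bot_left, relIndex_mul_relIndex _ _ _ bot_le le_sup_left]
  have h4 : E.relIndex K ≤ p := by
    refine Nat.le_of_mul_le_mul_left ?_ (pow_pos hp.out.pos 4)
    rw [← pow_succ]
    exact (hE4 ▸ h3).le.trans hK5
  have h5 : p ^ 4 ≤ p ^ 3 := by
    rw [← h1, pow_succ p 2]
    exact Nat.mul_le_mul ((card_le_of_le hI).trans hD2) (h2.trans h4)
  exact absurd ((Nat.pow_le_pow_iff_right hp1).mp h5) (by norm_num)

/-- A conjugation of order 3 on an elementary abelian group of order 81 has at least 9 fixed points. -/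
theorem nine_le_card_fixed {A : Type*} [CommGroup A] [Finite A] (hA : ∀ a : A, a ^ 3 = 1) (hc : Nat.card A = 81)
    (σ : A →* A) (hσ : ∀ a, σ (σ (σ a)) = a) {z : A} (hz : z ≠ 1) (hzf : σ z = z) :
    9 ≤ Nat.card ↥((σ / MonoidHom.id A).ker) := by
  set φ := σ / MonoidHom.id A with hφ
  have e : ∀ a, φ a = σ a / a := fun a => rfl
  have h3 : φ.comp (φ.comp φ) = 1 := by
    ext a
    simp only [MonoidHom.comp_apply, MonoidHom.one_apply, e, map_div, hσ]
    have : (σ a) ^ 3 / (σ (σ a)) ^ 3 = (1 : A) := by rw [hA, hA, div_one]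
    rw [← this]
    simp [pow_succ, div_eq_mul_inv, mul_comm, mul_left_comm, mul_assoc]
  have hstep : ∀ ψ : A →* A, Nat.card ↥((ψ.comp φ).ker) ≤ Nat.card ↥ψ.ker * Nat.card ↥φ.ker := by
    intro ψ
    have h := Coprime.card_map_mul_card_inf_ker φ (ψ.comp φ).ker
    rw [← h]
    refine Nat.mul_le_mul (card_le_of_le ?_) (card_le_of_le inf_le_right)
    rintro _ ⟨a, ha, rfl⟩
    exact ha
  have h27 : Nat.card A ≤ Nat.card ↥φ.ker * (Nat.card ↥φ.ker * Nat.card ↥φ.ker) := by
    calc Nat.card A = Nat.card ↥((φ.comp φ).comp φ).ker := by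
          rw [MonoidHom.comp_assoc, h3, MonoidHom.ker_one, Subgroup.card_top]
      _ ≤ Nat.card ↥(φ.comp φ).ker * Nat.card ↥φ.ker := hstep _
      _ ≤ _ := by
          rw [mul_comm]
          exact Nat.mul_le_mul_left _ (hstep φ)
  have hzk : z ∈ φ.ker := by rw [MonoidHom.mem_ker, e, hzf, div_self']
  have hd : Nat.card ↥φ.ker ∣ 81 := hc ▸ card_subgroup_dvd_card _
  obtain ⟨k, hk, hk'⟩ := (Nat.dvd_prime_pow Nat.prime_three).mp (show _ ∣ 3 ^ 4 from hd)
  rw [hc] at h27
  rw [hk'] at h27 ⊢
  interval_cases k <;> simp_all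

/-- S1338, the key step. -/
theorem not_pRankLE_centralizer_three {P : Type*} [Group P] [Finite P] (hP : IsPGroup 3 P) {A : Subgroup P}
    [hAn : A.Normal] (hA : Cfsg.IsElementaryAbelian 3 A) (hA4 : Nat.card A = 3 ^ 4) (X : Subgroup P)
    (hX : Cfsg.IsElementaryAbelian 3 X) (hX2 : 3 ^ 2 ≤ Nat.card X) :
    ¬ Cfsg.PRankLE 3 2 ↥(centralizer (X : Set P)) := by
  haveI : Fact (Nat.Prime 3) := ⟨Nat.prime_three⟩
  have hXC : X ≤ centralizer (X : Set P) := fun a ha =>
    mem_centralizer_iff.mpr fun b hb => commute_of_elementary hX hb ha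
  have hbig : ∀ Y : Subgroup P, Cfsg.IsElementaryAbelian 3 Y → Y ≤ centralizer (X : Set P) → ¬ Y ≤ X →
      ¬ Cfsg.PRankLE 3 2 ↥(centralizer (X : Set P)) := by
    intro Y hY hYC hYX
    have hs := isElementaryAbelian_sup hX hY fun a ha b hb => mem_centralizer_iff.mp (hYC hb) a ha
    refine Uniq.not_pRankLE_of_elem (sup_le hXC hYC) hs (lt_of_le_of_lt hX2 ?_)
    exact Transfer.card_lt_of_subgroup_lt (lt_of_le_of_ne le_sup_left fun e => hYX (le_sup_right.trans e.ge))
  obtain ⟨z, hzA, hzc, hzo⟩ := exists_central_order_p hP (N := A)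
    (fun e => by rw [e, card_bot] at hA4; norm_num at hA4)
  by_cases hzX : zpowers z ≤ X
  swap
  · refine hbig _ (isElementaryAbelian_le hA (zpowers_le.mpr hzA)) (zpowers_le.mpr ?_) hzX
    exact mem_centralizer_iff.mpr fun b _ => mem_center_iff.mp hzc b
  by_cases hXA : X ≤ A
  · refine Uniq.not_pRankLE_of_elem (E := A) ?_ hA (by rw [hA4]; norm_num)
    exact fun a ha => mem_centralizer_iff.mpr fun b hb => commute_of_elementary hA (hXA hb) ha
  rcases lt_or_eq_of_le hX2 with h | h
  · exact Uniq.not_pRankLE_of_elem hXC hX h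
  obtain ⟨y, hyX, hyA⟩ : ∃ y ∈ X, y ∉ A := SetLike.not_le_iff_exists.mp hXA
  letI : CommGroup A := { (inferInstance : Group A) with mul_comm := fun a b => Subtype.ext (commute_of_elementary hA a.2 b.2) }
  let σ : A →* A :=
    { toFun := fun a => ⟨y * a * y⁻¹, hAn.conj_mem a a.2 y⟩
      map_one' := Subtype.ext (by simp)
      map_mul' := fun a b => Subtype.ext (by simp [mul_assoc]) }
  have h9 := nine_le_card_fixed (fun a => Subtype.ext (by simpa using hA.2 a a.2)) hA4 σ
    (fun a => Subtype.ext (by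
      show y * (y * (y * (a : P) * y⁻¹) * y⁻¹) * y⁻¹ = a
      calc _ = y ^ 3 * (a : P) * (y ^ 3)⁻¹ := by simp only [pow_succ, pow_zero, one_mul, mul_inv_rev, mul_assoc]
        _ = _ := by rw [hX.2 y hyX]; group))
    (z := ⟨z, hzA⟩) (fun e => by
      rw [show z = 1 from congrArg Subtype.val e, orderOf_one] at hzo
      norm_num at hzo)
    (Subtype.ext (by show y * z * y⁻¹ = z; rw [mem_center_iff.mp hzc y, mul_inv_cancel_right]))
  set Y := ((σ / MonoidHom.id A).ker).map A.subtype with hY
  have hYc : 9 ≤ Nat.card Y := by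
    rw [hY, card_map_of_injective A.subtype_injective]; exact h9
  have hgen : X ≤ zpowers z ⊔ zpowers y := by
    refine le_sup_zpowers_of_card hP hzX hyX (fun hy => hyA (zpowers_le.mpr hzA hy)) ?_
    rw [← h, Nat.card_zpowers, hzo]; norm_num
  refine hbig Y (isElementaryAbelian_le hA (map_subtype_le _)) ?_ fun hYX => hXA ?_
  · rintro _ ⟨a, ha, rfl⟩
    rw [mem_centralizer_iff]
    intro b hb
    have hay : y * (a : P) * y⁻¹ = a := congrArg Subtype.val (div_eq_one.mp (MonoidHom.mem_ker.mp ha))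
    have : X ≤ centralizer ({(a : P)} : Set P) := hgen.trans (sup_le
      (zpowers_le.mpr (mem_centralizer_singleton_iff.mpr (mem_center_iff.mp hzc _).symm))
      (zpowers_le.mpr (mem_centralizer_singleton_iff.mpr (mul_inv_eq_iff_eq_mul.mp hay))))
    exact mem_centralizer_singleton_iff.mp (this hb)
  · exact (eq_of_le_of_card_ge hYX (h.ge.trans hYc)).ge.trans (map_subtype_le _)

end Cfsg.Agent.Lib.Thompson
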